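import Cfsg.Agent.SZ.Pts_a
import Cfsg.Agent.SZ.ZS_fin
import Cfsg.Agent.FT.Main

set_option autoImplicit false
set_option linter.unusedSectionVars false
set_option maxHeartbeats 400000

namespace CfsgO5

open Subgroup CfsgH5 CfsgH6 CfsgFT CfsgSZ

universe u
variable {G : Type u} [Group G] [Finite G]

/-- non-abelian simple subgroup -/
def NS (T : Subgroup G) : Prop := IsSimpleGroup T ∧ ¬ IsMulCommutative T

theorem NS.nrm {T K : Subgroup G} (h : NS T) (hK : K ≤ T) (hn : Nrm T K) : K = ⊥ ∨ K = T := by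
  haveI := h.1
  have : (K.subgroupOf T).Normal := ⟨fun a ha g => hn g g.2 a ha⟩
  rcases this.eq_bot_or_eq_top with e | e
  · left; exact le_bot_iff.1 fun a ha => by
      have : (⟨a, hK ha⟩ : T) ∈ K.subgroupOf T := ha
      rw [e, mem_bot] at this
      exact mem_bot.2 (congrArg Subtype.val this)
  · right; exact le_antisymm hK (subgroupOf_eq_top.1 e)

theorem NS.cen {T : Subgroup G} (h : NS T) {a : G} (ha : a ∈ T) (hc : ∀ b ∈ T, a * b = b * a) :
    a = 1 := by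
  rcases h.nrm (K := T ⊓ C T) inf_le_left (fun g hg x hx => ⟨T.mul_mem (T.mul_mem hg hx.1) (T.inv_mem hg), by
    rw [mem_centralizer_iff.1 hx.2 g hg, mul_inv_cancel_right]; exact hx.2⟩) with e | e
  · exact mem_bot.1 (e ▸ (⟨ha, mem_centralizer_iff.2 fun b hb => (hc b hb).symm⟩ : a ∈ T ⊓ C T))
  · exact (h.2 ⟨⟨fun x y => Subtype.ext (mem_centralizer_iff.1 (e.ge y.2).2 x x.2)⟩⟩).elim

theorem NS.even {T : Subgroup G} (h : NS T) : ¬ Odd (Nat.card T) := fun o => by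
  haveI := h.1
  have := feit_thompson T o
  exact h.2 ⟨⟨IsSimpleGroup.comm_iff_isSolvable.2 this⟩⟩

theorem NS.second {T : Subgroup G} (h : NS T) {a : G} (ha : a ∈ T) (a1 : a ≠ 1) (a2 : a * a = 1) :
    ∃ d ∈ T, d * d = 1 ∧ d ≠ 1 ∧ d ≠ a ∧ a * d = d * a := by
  by_contra hn
  push Not at hn
  have := brauer_suzuki ha a1 a2 fun v hv v2 c => by
    by_contra hh
    push Not at hh
    exact hn v hv v2 hh.1 hh.2 c
  rcases h.nrm (Opc_le 2 T) (nrm_Opc 2 T) with e | e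
  · rw [e, bot_sup_eq] at this
    exact a1 (h.cen ha fun b hb => (mem_C1.1 (this.ge hb).2).symm)
  · exact h.even (Nat.not_even_iff_odd.1 fun ev =>
      (Opc_eq_self Nat.prime_two).1 e (even_iff_two_dvd.1 ev))

theorem cent_inv {T : Subgroup G} (h : ¬ Odd (Nat.card T)) {c : G} (c2 : c * c = 1) (hc : c ∈ N T) :
    ∃ d ∈ T, d * d = 1 ∧ d ≠ 1 ∧ c * d = d * c := by
  haveI := Fact.mk Nat.prime_two
  have pc := isPGroup_two_zpowers_of_sq c2
  obtain ⟨S, h1, hS⟩ := exists_sylIn_ge (H := N T) (zpowers_le.2 hc) pc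
  have h2 : SylIn 2 (S ⊓ T) T := hS.inf_nrm le_normalizer (nrm_N T)
  have h3 : S ⊓ T ≠ ⊥ := fun e => by
    have := h2.not_dvd_relIndex
    rw [e, relIndex_bot_left] at this
    exact this (even_iff_two_dvd.1 (Nat.not_odd_iff_even.1 h))
  have h4 := inf_C_ne_bot_of_isPGroup Nat.prime_two h2.isPGroup pc (fun a ha x hx =>
    ⟨S.mul_mem (S.mul_mem (h1 ha) hx.1) (S.inv_mem (h1 ha)), conj_mem_of_mem_N (hS.le (h1 ha)) hx.2⟩) h3
  obtain ⟨d, hd, d2, d1⟩ := pt_exists_invol (X := S ⊓ T ⊓ C (zpowers c)) fun o =>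
    Nat.not_even_iff_odd.2 o (even_iff_two_dvd.2
      (prime_dvd_card_of_isPGroup Nat.prime_two (h2.isPGroup.to_le inf_le_left) h4))
  exact ⟨d, hd.1.2, d2, d1, mem_centralizer_iff.1 hd.2 c (mem_zpowers c)⟩

/-- odd normal part modulo a central involution -/
theorem zstar_mod {w a : G} (w2 : w * w = 1) (a2 : a * a = 1) (a1 : a ≠ 1) (aw : a ≠ w)
    (hc : a * w = w * a) {K V : Subgroup G} (wK : w ∈ K) (hV : V ≤ C1 w) (Vab : Ab V)
    (Vc : ¬ IsCyclic V) (V2 : ∀ v ∈ V, v * v = 1) (wV : w ∉ V)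
    (hK : ∀ v ∈ V, v ≠ 1 → C1 v ≤ K)
    (hK' : ∀ g ∈ C1 w, (g * a * g⁻¹ = a ∨ g * a * g⁻¹ = a * w) → g ∈ K)
    (iso : ∀ g ∈ C1 w, (a * (g * a * g⁻¹) = g * a * g⁻¹ * a ∨ a * (g * a * g⁻¹) = g * a * g⁻¹ * a * w) →
      g * a * g⁻¹ = a ∨ g * a * g⁻¹ = a * w) : C1 w ≤ K := by
  let W : Subgroup (C1 w) := zpowers ⟨w, self_mem_C1 w⟩
  haveI : W.Normal := ⟨fun n ⟨i, hi⟩ k => by
    have : k * n = n * k := by
      rw [← hi]; exact (Commute.zpow_right (Subtype.ext (mem_C1.1 k.2)) i).eq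
    rw [this, mul_inv_cancel_right]; exact ⟨i, hi⟩⟩
  let π : C1 w →* C1 w ⧸ W := QuotientGroup.mk' W
  have πs : Function.Surjective π := QuotientGroup.mk'_surjective _
  have e1 : ∀ k, π k = 1 ↔ k.1 = 1 ∨ k.1 = w := fun k => by
    rw [QuotientGroup.mk'_apply, QuotientGroup.eq_one_iff]
    rw [mem_zpowers_invol (show (⟨w, self_mem_C1 w⟩ : C1 w) * ⟨w, self_mem_C1 w⟩ = 1 from Subtype.ext w2)]
    exact or_congr Subtype.ext_iff Subtype.ext_iff
  have e2 : ∀ k l, π k = π l ↔ k.1 = l.1 ∨ k.1 = l.1 * w := fun k l => by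
    rw [eq_comm, ← inv_mul_eq_one, ← map_inv, ← map_mul, e1, coe_mul, coe_inv,
      inv_mul_eq_one, inv_mul_eq_iff_eq_mul, eq_comm]
  let A : C1 w := ⟨a, mem_C1.2 hc⟩
  have hz := zstar (H := (⊤ : Subgroup (C1 w ⧸ W))) (mem_top (π A))
    (fun e => ((e1 A).1 e).elim a1 aw) (by rw [← map_mul, e1]; exact Or.inl a2) (fun g _ c => by
      obtain ⟨g, rfl⟩ := πs g
      have c' := c.eq
      simp only [← map_inv, ← map_mul] at c' ⊢
      rw [e2] at c' ⊢
      exact iso g g.2 c')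
  let K' : Subgroup (C1 w ⧸ W) := (K.subgroupOf (C1 w)).map π
  have back : ∀ k, π k ∈ K' → k.1 ∈ K := by
    rintro k ⟨l, hl, e⟩
    rcases (e2 k l).1 e.symm with b | b
    · rw [b]; exact hl
    · rw [b]; exact mul_mem hl wK
  let V' : Subgroup (C1 w ⧸ W) := (V.subgroupOf (C1 w)).map π
  have hO : Opc 2 (⊤ : Subgroup (C1 w ⧸ W)) ≤ K' := by
    refine le_of_cent1_le (A := V') ?_ ?_ (fun a _ x hx => nrm_Opc 2 ⊤ a (mem_top a) x hx) ?_ ?_
    · rw [ab_iff]
      rintro _ ⟨x, hx, rfl⟩ _ ⟨y, hy, rfl⟩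
      rw [← map_mul, ← map_mul]; congr 1; exact Subtype.ext (Vab.comm hx hy)
    · intro hcy
      apply Vc
      let φ : V →* V' := (π.comp (inclusion hV)).codRestrict V' fun v => ⟨inclusion hV v, v.2, rfl⟩
      refine isCyclic_of_injective φ ((injective_iff_map_eq_one φ).2 fun v e => ?_)
      rcases (e1 (inclusion hV v)).1 (congrArg Subtype.val e) with b | b
      · exact Subtype.ext b
      · exact (wV (b ▸ v.2)).elim
    · refine coprime_Opc Nat.prime_two ⊤ ?_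
      rintro ⟨_, x, hx, rfl⟩
      refine ⟨1, Subtype.ext ?_⟩
      show π x ^ 2 ^ 1 = 1
      rw [pow_one, pow_two, ← map_mul, e1]; exact Or.inl (V2 _ hx)
    · rintro _ ⟨v, hv, rfl⟩ v1 o ⟨ho, hov⟩
      obtain ⟨o, rfl⟩ := πs o
      have od : Odd (orderOf (π o)) := pt_odd_mem (Nat.not_even_iff_odd.1 fun ev =>
        not_dvd_card_Opc Nat.prime_two _ (even_iff_two_dvd.1 ev)) ho
      have hm := mem_C1.1 hov
      rw [← map_mul, ← map_mul, e2] at hm
      have o2 : o.1 * o.1 ∈ C1 v.1 := by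
        have ow := mem_C1.1 o.2
        have vw := mem_C1.1 v.2
        simp only [coe_mul] at hm
        refine mem_C1.2 ?_
        rcases hm with b | b
        · rw [mul_assoc, b, ← mul_assoc, b, mul_assoc]
        · calc o.1 * o.1 * v.1 = o.1 * (o.1 * v.1) := by group
            _ = o.1 * (v.1 * o.1 * w) := by rw [← b]
            _ = (o.1 * v.1) * o.1 * w := by group
            _ = (v.1 * o.1 * w) * o.1 * w := by rw [← b]
            _ = v.1 * o.1 * (w * o.1) * w := by group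
            _ = v.1 * (o.1 * o.1) * (w * w) := by rw [← ow]; group
            _ = _ := by rw [w2, mul_one]
      refine pt_mem_of_sq od ?_
      rw [← map_mul]
      exact ⟨o * o, hK v hv (fun e => v1 ((e1 v).2 (Or.inl e))) o2, rfl⟩
  have hT : (⊤ : Subgroup (C1 w ⧸ W)) ≤ K' := by
    rw [← hz]
    refine sup_le hO ?_
    rintro g ⟨-, hg⟩
    obtain ⟨g, rfl⟩ := πs g
    have hm := mem_C1_iff_conj.1 hg
    simp only [← map_inv, ← map_mul] at hm
    exact ⟨g, hK' g g.2 ((e2 _ _).1 hm), rfl⟩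
  exact fun g hg => back ⟨g, hg⟩ (hT (mem_top _))

end CfsgO5
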