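import Mathlib

set_option autoImplicit false

/-! Feit's theorem on large primitive prime divisors. -/

namespace CfsgH5.Feit

open Polynomial

theorem prod_lower (n : ℕ) :
    (1 / 4 : ℝ) + (1 / 2) ^ (n + 2) ≤ ∏ i ∈ Finset.range (n + 1), (1 - (1 / 2 : ℝ) ^ (i + 1)) := by
  induction n with
  | zero => norm_num
  | succ n ih =>
    rw [Finset.prod_range_succ]
    have h1 : (1 / 2 : ℝ) ^ (n + 2) ≤ 1 / 4 := by
      have : (1 / 2 : ℝ) ^ n ≤ 1 := pow_le_one₀ (by norm_num) (by norm_num)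
      rw [pow_add]; nlinarith
    have h2 : (0 : ℝ) < (1 / 2 : ℝ) ^ (n + 2) := by positivity
    have h3 : (1 / 2 : ℝ) ^ (n + 1 + 2) = (1 / 2) ^ (n + 2) / 2 := by ring
    rw [h3, show n + 1 + 1 = n + 2 from rfl]
    set x := (1 / 2 : ℝ) ^ (n + 2)
    calc 1 / 4 + x / 2 ≤ (1 / 4 + x) * (1 - x) := by nlinarith
      _ ≤ _ := mul_le_mul_of_nonneg_right ih (by linarith)

theorem cyc_lower (q : ℝ) (hq : 2 ≤ q) (n : ℕ) (hn : 0 < n) :
    q ^ n.totient / 4 ≤ eval q (cyclotomic n ℝ) := by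
  have hq0 : 0 < q := by linarith
  have hq1 : 1 < q := by linarith
  set f : ℕ → ℝ := fun d => eval q (cyclotomic d ℝ) / q ^ d.totient with hf
  set g : ℕ → ℝ := fun d => 1 - (1 / q) ^ d with hg
  have hgl : ∀ d, 0 < d → 1 - (1 / 2 : ℝ) ^ d ≤ g d := by
    intro d _
    have : (1 / q) ^ d ≤ (1 / 2 : ℝ) ^ d :=
      pow_le_pow_left₀ (by positivity) (one_div_le_one_div_of_le (by norm_num) hq) d
    simp only [hg]; linarith
  have hh : ∀ d, 0 < d → (0 : ℝ) < 1 - (1 / 2 : ℝ) ^ d := by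
    intro d hd
    have : (1 / 2 : ℝ) ^ d < 1 := pow_lt_one₀ (by norm_num) (by norm_num) hd.ne'
    linarith
  have hg0 : ∀ d, 0 < d → 0 < g d := fun d hd => (hh d hd).trans_le (hgl d hd)
  have hg1 : ∀ d, g d ≤ 1 := by
    intro d
    have : 0 ≤ (1 / q) ^ d := by positivity
    simp only [hg]; linarith
  have hf0 : ∀ d, 0 < d → f d ≠ 0 := by
    intro d _
    exact (div_pos (cyclotomic_pos' d hq1) (by positivity)).ne'
  have key : ∀ m > 0, ∏ i ∈ m.divisors, f i = g m := by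
    intro m hm
    simp only [hf, hg]
    rw [Finset.prod_div_distrib, Finset.prod_pow_eq_pow_sum, Nat.sum_totient, ← eval_prod,
      prod_cyclotomic_eq_X_pow_sub_one hm]
    simp only [eval_sub, eval_pow, eval_X, eval_one]
    field_simp
    rw [one_div, inv_pow]
    field_simp
  have h1 := (ArithmeticFunction.prod_eq_iff_prod_pow_moebius_eq_of_nonzero hf0
    (fun d hd => (hg0 d hd).ne')).1 key n hn
  have h2 : ∏ x ∈ n.divisorsAntidiagonal, g x.snd ≤ f n := by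
    rw [← h1]
    apply Finset.prod_le_prod
    · intro x hx
      exact (hg0 _ (Nat.pos_of_mem_divisors (Nat.snd_mem_divisors_of_mem_antidiagonal hx))).le
    · intro x hx
      have h0 := hg0 _ (Nat.pos_of_mem_divisors (Nat.snd_mem_divisors_of_mem_antidiagonal hx))
      rcases ArithmeticFunction.moebius_eq_or x.fst with h | h | h <;> rw [h]
      · simpa using hg1 _
      · simp
      · rw [zpow_neg, zpow_one]
        exact (hg1 _).trans ((one_le_inv₀ h0).2 (hg1 _))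
  rw [Nat.prod_divisorsAntidiagonal' (f := fun _ b => g b)] at h2
  have h3 : ∏ i ∈ Finset.range n, (1 - (1 / 2 : ℝ) ^ (i + 1)) ≤ ∏ i ∈ n.divisors, g i := by
    calc ∏ i ∈ Finset.range n, (1 - (1 / 2 : ℝ) ^ (i + 1))
        = ∏ i ∈ Finset.Ico 1 (n + 1), (1 - (1 / 2 : ℝ) ^ i) := by
          rw [Finset.prod_Ico_eq_prod_range]; simp [add_comm]
      _ ≤ ∏ i ∈ n.divisors, (1 - (1 / 2 : ℝ) ^ i) := by
          apply Finset.prod_le_prod_of_subset_of_le_one
          · exact Finset.filter_subset _ _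
          · intro i hi; exact (hh i (by simp at hi; omega)).le
          · intro i _ _
            have : 0 ≤ (1 / 2 : ℝ) ^ i := by positivity
            linarith
      _ ≤ _ := by
          apply Finset.prod_le_prod
          · intro i hi; exact (hh i (Nat.pos_of_mem_divisors hi)).le
          · intro i hi; exact hgl i (Nat.pos_of_mem_divisors hi)
  obtain ⟨k, rfl⟩ : ∃ k, n = k + 1 := ⟨n - 1, by omega⟩
  have h4 := prod_lower k
  have h5 : (0 : ℝ) < (1 / 2 : ℝ) ^ (k + 2) := by positivity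
  have h6 : 1 / 4 ≤ f (k + 1) := by linarith
  simp only [hf] at h6
  rw [le_div_iff₀ (by positivity)] at h6
  linarith

theorem le_two_mul_totient_sq (n : ℕ) : n ≤ 2 * n.totient ^ 2 ∧ (Odd n → n ≤ n.totient ^ 2) := by
  induction n using Nat.recOnPosPrimePosCoprime with
  | zero => simp
  | one => simp
  | prime_pow p k hp hk =>
    rw [Nat.totient_prime_pow hp hk]
    obtain ⟨k, rfl⟩ : ∃ j, k = j + 1 := ⟨k - 1, by omega⟩
    simp only [Nat.add_sub_cancel]
    have h1 : 1 ≤ p ^ k := Nat.one_le_pow _ _ hp.pos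
    rcases hp.eq_two_or_odd' with rfl | hodd
    · refine ⟨?_, fun h => ?_⟩
      · rw [pow_succ]; simp; nlinarith
      · exact absurd h (Nat.not_odd_iff_even.2 (even_two.pow_of_ne_zero (by omega)))
    · have h3 : 3 ≤ p := by
        have := hp.two_le
        rcases hodd with ⟨c, hc⟩; omega
      obtain ⟨s, rfl⟩ : ∃ s, p = s + 1 := ⟨p - 1, by omega⟩
      simp only [Nat.add_sub_cancel]
      have : (s + 1) ^ (k + 1) ≤ ((s + 1) ^ k * s) ^ 2 := by
        rw [pow_succ, mul_pow]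
        have h4 : s + 1 ≤ s ^ 2 := by nlinarith
        have h5 : (s + 1) ^ k ≤ ((s + 1) ^ k) ^ 2 := by nlinarith
        exact Nat.mul_le_mul h5 h4
      exact ⟨by omega, fun _ => this⟩
  | coprime a b ha hb hab iha ihb =>
    rw [Nat.totient_mul hab, mul_pow]
    refine ⟨?_, fun h => ?_⟩
    · rcases Nat.even_or_odd a with h | h
      · have hb' : Odd b := by
          by_contra h'
          rw [Nat.not_odd_iff_even] at h'
          have := Nat.dvd_gcd h.two_dvd h'.two_dvd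
          rw [hab] at this; omega
        have := Nat.mul_le_mul iha.1 (ihb.2 hb')
        linarith
      · have := Nat.mul_le_mul (iha.2 h) ihb.1
        linarith
    · rw [Nat.odd_mul] at h
      exact Nat.mul_le_mul (iha.2 h.1) (ihb.2 h.2)

theorem two_pow_big {f : ℕ} (hf : 22 ≤ f) : 4 * (2 * f ^ 2 * (2 * f ^ 2 + 1)) < 2 ^ f := by
  induction f, hf using Nat.le_induction with
  | base => norm_num
  | succ n hn ih =>
    rw [pow_succ 2 n]
    have h1 : 2 * (n + 1) ^ 2 * 5 ≤ 2 * n ^ 2 * 6 := by nlinarith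
    have h2 : (2 * (n + 1) ^ 2 + 1) * 5 ≤ (2 * n ^ 2 + 1) * 6 := by nlinarith
    have h3 := Nat.mul_le_mul h1 h2
    nlinarith

theorem small_n : ∀ n < 900, 2 ^ n.totient ≤ 4 * (n * (n + 1)) → n ≤ 42 := by
  decide +kernel

theorem n_le {n : ℕ} (h : 2 ^ n.totient ≤ 4 * (n * (n + 1))) : n ≤ 42 := by
  apply small_n n _ h
  have h1 := (le_two_mul_totient_sq n).1
  by_cases hf : 22 ≤ n.totient
  · have h2 := two_pow_big hf
    have h3 : n * (n + 1) ≤ 2 * n.totient ^ 2 * (2 * n.totient ^ 2 + 1) :=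
      Nat.mul_le_mul h1 (by omega)
    omega
  · have : n.totient ^ 2 ≤ 21 ^ 2 := Nat.pow_le_pow_left (by omega) 2
    omega

def tab : List (ℕ × ℕ × ℕ) := [(2, 3, 7), (3, 3, 13), (4, 3, 7), (5, 3, 31), (6, 3, 43), (4, 4, 17), (5, 4, 13), (6, 4, 37), (7, 4, 5), (8, 4, 13), (2, 5, 31), (3, 5, 11), (4, 6, 13), (6, 6, 31), (7, 6, 43), (8, 6, 19), (9, 6, 73), (10, 6, 13), (11, 6, 37), (12, 6, 19), (2, 7, 127), (2, 8, 17), (3, 8, 41), (4, 8, 257), (2, 9, 73), (3, 10, 61), (4, 10, 41), (3, 12, 73), (4, 12, 241), (2, 14, 43), (3, 14, 547), (2, 15, 151), (2, 16, 257), (3, 18, 37), (2, 20, 41), (2, 22, 683), (2, 24, 241), (2, 30, 331), (2, 36, 109), (2, 42, 5419)]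

theorem tab_prime : ∀ t ∈ tab, t.2.2.Prime := by
  simp only [tab, List.mem_cons, List.not_mem_nil, or_false]
  rintro t h
  rcases h with h | h | h | h | h | h | h | h | h | h | h | h | h | h | h | h | h | h | h | h |
    h | h | h | h | h | h | h | h | h | h | h | h | h | h | h | h | h | h | h | h <;>
  subst h <;> norm_num

theorem tab_ok : ∀ t ∈ tab, t.2.2 ∣ t.1 ^ t.2.1 - 1 ∧ (∀ i < t.2.1, 1 ≤ i → ¬ t.2.2 ∣ t.1 ^ i - 1) ∧
    (t.2.1 + 1 < t.2.2 ∨ t.2.2 ^ 2 ∣ t.1 ^ t.2.1 - 1) := by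
  decide +kernel

set_option synthInstance.maxSize 2000 in
set_option synthInstance.maxHeartbeats 200000 in
theorem tab_cover : ∀ n < 43, 3 ≤ n → ∀ q < 90, 2 ≤ q → q ^ n.totient ≤ 4 * (n * (n + 1)) →
    (q = 2 ∧ (n = 4 ∨ n = 6 ∨ n = 10 ∨ n = 12 ∨ n = 18)) ∨ (q = 3 ∧ (n = 4 ∨ n = 6)) ∨
    (q = 5 ∧ n = 6) ∨ ∃ t ∈ tab, t.1 = q ∧ t.2.1 = n := by
  decide +kernel

theorem dvd_pow_sub_one_iff {q r j : ℕ} (hq : 1 ≤ q) : r ∣ q ^ j - 1 ↔ orderOf (q : ZMod r) ∣ j := by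
  rw [orderOf_dvd_iff_pow_eq_one, ← ZMod.natCast_eq_zero_iff,
    Nat.cast_sub (Nat.one_le_pow _ _ hq)]
  push_cast
  rw [sub_eq_zero]

/-- If no large primitive prime divisor exists then `Φ_n(q)` divides `n (n+1)`. -/
theorem cyc_dvd {q n : ℕ} (hq : 2 ≤ q) (hn : 3 ≤ n)
    (hcon : ∀ p : ℕ, p.Prime → orderOf (q : ZMod p) = n → p ≤ n + 1 ∧ ¬ p ^ 2 ∣ q ^ n - 1) :
    (eval (q : ℤ) (cyclotomic n ℤ)).natAbs ∣ n * (n + 1) := by
  set N := (eval (q : ℤ) (cyclotomic n ℤ)).natAbs with hN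
  have hN1 : 0 < N := by
    have := sub_one_lt_natAbs_cyclotomic_eval (q := q) (by omega : 1 < n) (by omega)
    omega
  have hNd : N ∣ q ^ n - 1 := by
    have h1 := eval_dvd (x := (q : ℤ)) (cyclotomic.dvd_X_pow_sub_one n ℤ)
    simp only [eval_sub, eval_pow, eval_X, eval_one] at h1
    rw [← Int.natCast_dvd_natCast, Nat.cast_sub (Nat.one_le_pow _ _ (by omega))]
    push_cast
    rw [hN, Int.natCast_natAbs, abs_dvd]
    exact h1
  have key : ∀ r : ℕ, r.Prime → r ∣ N → (r = n + 1 ∨ r ∣ n) ∧ ¬ r ^ 2 ∣ N := by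
    intro r hr hd
    have := Fact.mk hr
    obtain ⟨k, m, hm, hkm⟩ := Nat.exists_eq_pow_mul_and_not_dvd (by omega : n ≠ 0) r hr.ne_one
    have : NeZero (m : ZMod r) := ⟨by rwa [Ne, ZMod.natCast_eq_zero_iff]⟩
    have h1 : (cyclotomic n (ZMod r)).IsRoot q := by
      have h2 := (ZMod.intCast_zmod_eq_zero_iff_dvd _ r).2 (Int.natCast_dvd.2 hd)
      rw [← map_cyclotomic_int, IsRoot.def,
        show (q : ZMod r) = Int.castRingHom (ZMod r) (q : ℤ) by simp, eval_map, eval₂_hom]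
      exact h2
    rw [hkm, isRoot_cyclotomic_prime_pow_mul_iff_of_charP] at h1
    have hm0 : m ≠ 0 := fun e => hm (by simp [e])
    have h2 : (q : ZMod r) ≠ 0 := h1.ne_zero hm0
    have hord : orderOf (q : ZMod r) = m := h1.eq_orderOf.symm
    rcases k with _ | k
    · have h3 : orderOf (q : ZMod r) = n := by rw [hkm, hord]; simp
      obtain ⟨h4, h5⟩ := hcon r hr h3
      have h6 := ZMod.orderOf_dvd_card_sub_one h2
      rw [h3] at h6
      have := Nat.le_of_dvd (by have := hr.two_le; omega) h6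
      exact ⟨Or.inl (by have := hr.two_le; omega), fun h => h5 (h.trans hNd)⟩
    refine ⟨Or.inr (hkm ▸ Dvd.dvd.mul_right (dvd_pow_self _ (by omega)) _), fun h => ?_⟩
    set t := r ^ k * m with ht
    have hnt : n = t * r := by rw [hkm, ht]; ring
    have ht0 : 0 < t := Nat.pos_of_ne_zero fun e => by rw [e] at hnt; omega
    have h1' := X_pow_sub_one_mul_cyclotomic_dvd_X_pow_sub_one_of_dvd ℤ (d := t) (n := n)
      (Nat.mem_properDivisors.2 ⟨⟨r, hnt⟩, by have := hr.two_le; nlinarith⟩)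
    have h2' := eval_dvd (x := (q : ℤ)) h1'
    simp only [eval_mul, eval_sub, eval_pow, eval_X, eval_one] at h2'
    have h3 : (q : ℤ) ^ t - 1 ≠ 0 := by
      have : (1 : ℤ) < q ^ t := one_lt_pow₀ (by exact_mod_cast hq) ht0.ne'
      omega
    have h4 := geom_sum₂_mul ((q : ℤ) ^ t) 1 r
    rw [one_pow, ← pow_mul, ← hnt] at h4
    rw [← h4, mul_comm, mul_dvd_mul_iff_right h3] at h2'
    have h7 : (r : ℤ) ^ 2 ∣ eval (q : ℤ) (cyclotomic n ℤ) := by
      rw [← Int.dvd_natAbs]; exact_mod_cast h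
    have h9 := h7.trans h2'
    by_cases hr2 : r = 2
    · subst hr2
      have hm1 : m = 1 := by
        have h6 := ZMod.orderOf_dvd_card_sub_one h2
        rw [hord] at h6
        simpa using h6
      obtain ⟨k', rfl⟩ : ∃ k', k = k' + 1 := by
        rcases k with _ | k'
        · rw [hm1] at hkm; omega
        · exact ⟨k', rfl⟩
      have h10 : (q : ℤ) ^ t = ((q : ℤ) ^ (2 ^ k' * m)) ^ 2 := by rw [ht, ← pow_mul]; congr 1; ring
      simp only [Finset.sum_range_succ, Finset.sum_range_zero] at h9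
      rw [h10] at h9
      generalize (q : ℤ) ^ (2 ^ k' * m) = x at h9
      have h11 : (x ^ 2) % 4 = 0 ∨ (x ^ 2) % 4 = 1 := by
        rcases Int.even_or_odd' x with ⟨y, rfl | rfl⟩
        · left; have : (2 * y) ^ 2 = 4 * (y ^ 2) := by ring
          omega
        · right; have : (2 * y + 1) ^ 2 = 4 * (y ^ 2 + y) + 1 := by ring
          omega
      norm_num at h9
      omega
    have h5 : (r : ℤ) ∣ (q : ℤ) ^ t - 1 := by
      rw [← ZMod.intCast_zmod_eq_zero_iff_dvd]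
      push_cast
      rw [sub_eq_zero, ← orderOf_dvd_iff_pow_eq_one, hord]
      exact Dvd.intro_left _ rfl
    have h6 := emultiplicity_geom_sum₂_eq_one (Nat.prime_iff_prime_int.1 hr) (hr.odd_of_ne_two hr2)
      h5 (fun h7 => h2 ((ZMod.natCast_eq_zero_iff _ _).2 (hr.dvd_of_dvd_pow
        (n := t) (by exact_mod_cast h7))))
    have h8 := pow_dvd_iff_le_emultiplicity.1 h9
    rw [h6] at h8
    exact absurd h8 (by decide)
  have hsq : Squarefree N := by
    rw [Nat.squarefree_iff_prime_squarefree]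
    intro r hr h
    exact (key r hr ((dvd_mul_right r r).trans h)).2 (by rwa [sq])
  rw [← Nat.prod_primeFactors_of_squarefree hsq]
  apply Finset.prod_primes_dvd
  · intro r hr; exact (Nat.prime_of_mem_primeFactors hr).prime
  · intro r hr
    rcases (key r (Nat.prime_of_mem_primeFactors hr) (Nat.dvd_of_mem_primeFactors hr)).1 with h | h
    · rw [h]; exact dvd_mul_left _ _
    · exact h.mul_right _

theorem pow_le {q n : ℕ} (hq : 2 ≤ q) (hn : 3 ≤ n)
    (hcon : ∀ p : ℕ, p.Prime → orderOf (q : ZMod p) = n → p ≤ n + 1 ∧ ¬ p ^ 2 ∣ q ^ n - 1) :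
    q ^ n.totient ≤ 4 * (n * (n + 1)) := by
  have h1 := Nat.le_of_dvd (by positivity) (cyc_dvd hq hn hcon)
  have h2 := cyc_lower q (by exact_mod_cast hq) n (by omega)
  have h3 : eval (q : ℝ) (cyclotomic n ℝ) = (eval (q : ℤ) (cyclotomic n ℤ) : ℤ) := by
    rw [← map_cyclotomic_int n ℝ, show (q : ℝ) = Int.castRingHom ℝ (q : ℤ) by simp, eval_map,
      eval₂_hom]
    simp
  have h4 : ((eval (q : ℤ) (cyclotomic n ℤ) : ℤ) : ℝ) ≤ ((n * (n + 1) : ℕ) : ℝ) := by
    have : eval (q : ℤ) (cyclotomic n ℤ) ≤ ((n * (n + 1) : ℕ) : ℤ) :=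
      (Int.le_natAbs).trans (by exact_mod_cast h1)
    exact_mod_cast this
  have : ((q ^ n.totient : ℕ) : ℝ) ≤ ((4 * (n * (n + 1)) : ℕ) : ℝ) := by
    push_cast at h4 ⊢
    linarith
  exact_mod_cast this

theorem feit (q n : ℕ) (hq : 2 ≤ q) (hn : 2 ≤ n)
    (h1 : ¬ (n = 2 ∧ ∃ s t : ℕ, t ≤ 1 ∧ q + 1 = 2 ^ s * 3 ^ t))
    (h2 : ¬ (q = 2 ∧ (n = 4 ∨ n = 6 ∨ n = 10 ∨ n = 12 ∨ n = 18)))
    (h3 : ¬ (q = 3 ∧ (n = 4 ∨ n = 6))) (h4 : ¬ (q = 5 ∧ n = 6)) :
    ∃ p : ℕ, p.Prime ∧ p ∣ q ^ n - 1 ∧ (∀ i : ℕ, 1 ≤ i → i < n → ¬ p ∣ q ^ i - 1) ∧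
      (n + 1 < p ∨ p ^ 2 ∣ q ^ n - 1) := by
  by_contra hc
  rcases hn.eq_or_lt with rfl | hn3
  · apply h1
    refine ⟨rfl, ?_⟩
    have hq2 : q ^ 2 - 1 = (q + 1) * (q - 1) := by
      obtain ⟨c, rfl⟩ : ∃ c, q = c + 1 := ⟨q - 1, by omega⟩
      simp only [Nat.add_sub_cancel]
      apply Nat.sub_eq_of_eq_add; ring
    have key : ∀ p : ℕ, p.Prime → p ∣ q + 1 → p ≠ 2 → p = 3 ∧ ¬ p ^ 2 ∣ q + 1 := by
      intro p hp hd hp2
      have h5 : ¬ (2 + 1 < p ∨ p ^ 2 ∣ q ^ 2 - 1) := by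
        intro h
        refine hc ⟨p, hp, hq2 ▸ hd.mul_right _, fun i hi1 hi2 h6 => ?_, h⟩
        obtain rfl : i = 1 := by omega
        rw [pow_one] at h6
        have h7 := Nat.dvd_sub hd h6
        rw [show q + 1 - (q - 1) = 2 by omega] at h7
        exact hp2 ((Nat.prime_dvd_prime_iff_eq hp Nat.prime_two).1 h7)
      push Not at h5
      have := hp.two_le
      exact ⟨by omega, fun h => h5.2 (hq2 ▸ h.mul_right _)⟩
    obtain ⟨s, m, hm, hsm⟩ := Nat.exists_eq_pow_mul_and_not_dvd (by omega : q + 1 ≠ 0) 2 (by decide)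
    have hmd : m ∣ q + 1 := hsm ▸ dvd_mul_left _ _
    have hm0 : m ≠ 0 := by rintro rfl; simp at hm
    have h6 := Nat.eq_prime_pow_of_unique_prime_dvd (p := 3) hm0 (fun {d} hd hdm =>
      (key d hd (hdm.trans hmd) (by rintro rfl; exact hm hdm)).1)
    generalize m.primeFactorsList.length = j at h6
    refine ⟨s, j, ?_, by rw [hsm, h6]⟩
    by_contra hj
    have h7 : 3 ^ 2 ∣ q + 1 := (h6 ▸ pow_dvd_pow 3 (by omega : 2 ≤ j)).trans hmd
    exact (key 3 Nat.prime_three ((by norm_num : 3 ∣ 3 ^ 2).trans h7) (by norm_num)).2 h7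
  have h5 := pow_le hq hn3 (fun p hp hord => by
    by_contra h
    refine hc ⟨p, hp, (dvd_pow_sub_one_iff (by omega)).2 (by rw [hord]), fun i hi1 hi2 h6 => ?_, ?_⟩
    · rw [dvd_pow_sub_one_iff (by omega), hord] at h6
      have := Nat.le_of_dvd (by omega) h6
      omega
    · by_contra h7
      push Not at h7
      exact h h7)
  have h6 : n ≤ 42 := n_le ((Nat.pow_le_pow_left hq _).trans h5)
  have h7 : q < 90 := by
    have h8 : 2 ≤ n.totient := by
      have h9 := Nat.totient_even hn3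
      have h10 : 0 < n.totient := Nat.totient_pos.2 (by omega)
      rcases h9 with ⟨c, hc⟩; omega
    have h9 : q ^ 2 ≤ q ^ n.totient := Nat.pow_le_pow_right (by omega) h8
    have h10 : n * (n + 1) ≤ 42 * 43 := Nat.mul_le_mul h6 (by omega)
    by_contra h
    have : 90 ^ 2 ≤ q ^ 2 := Nat.pow_le_pow_left (by omega) 2
    omega
  rcases tab_cover n (by omega) hn3 q h7 hq h5 with h | h | h | ⟨t, ht, rfl, rfl⟩
  · exact h2 h
  · exact h3 h
  · exact h4 h
  · obtain ⟨a, b, c⟩ := tab_ok t ht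
    exact hc ⟨t.2.2, tab_prime t ht, a, fun i hi1 hi2 => b i hi2 hi1, c⟩

end CfsgH5.Feit
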