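import Cfsg.Agent.H5.OA1

set_option autoImplicit false
set_option linter.unusedSectionVars false
set_option maxHeartbeats 400000

namespace CfsgO5

open Subgroup CfsgH5 CfsgH6 CfsgFT CfsgSZ

universe u
variable {G : Type u} [Group G] [Finite G] {Ω : Type*} [MulAction G Ω]

/-- a system of components attached to the points -/
structure CS (Cp : Ω → Set (Subgroup G)) : Prop where
  tr2 : ∀ x y x1 y1 : Ω, x ≠ y → x1 ≠ y1 → ∃ g : G, g • x = x1 ∧ g • y = y1
  nt : ∃ x y : Ω, x ≠ y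
  eqv : ∀ x (g : G) T, T ∈ Cp x → cj g T ∈ Cp (g • x)
  fix : ∀ x T, T ∈ Cp x → ∀ t ∈ T, t • x = x
  simp : ∀ x T, T ∈ Cp x → NS T
  comm : ∀ x T T', T ∈ Cp x → T' ∈ Cp x → T ≠ T' → ∀ a ∈ T, ∀ b ∈ T', a * b = b * a
  two : ∀ x, ∃ T T', T ∈ Cp x ∧ T' ∈ Cp x ∧ T ≠ T'
  cen : ∀ x, ∀ g ∈ sSup (Cp x), (∀ T ∈ Cp x, ∀ t ∈ T, g * t = t * g) → g = 1

/-- involutions of components -/
def II (Cp : Ω → Set (Subgroup G)) (x : Ω) (t : G) : Prop := t * t = 1 ∧ t ≠ 1 ∧ ∃ T ∈ Cp x, t ∈ T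

variable {Cp : Ω → Set (Subgroup G)}

theorem smul_comm_fix {g t : G} {x : Ω} (h : t • x = x) (c : g * t = t * g) : t • g • x = g • x := by
  rw [← mul_smul, ← c, mul_smul, h]

theorem sq_cj {x : G} (h : x * x = 1) (c : G) : c * x * c⁻¹ * (c * x * c⁻¹) = 1 := by
  rw [conj_mul, h]; group

theorem ne_cj {x : G} (h : x ≠ 1) (c : G) : c * x * c⁻¹ ≠ 1 := fun e => h (by
  calc x = c⁻¹ * (c * x * c⁻¹) * c := by group
    _ = 1 := by rw [e]; group)

namespace CS

variable (h : CS Cp)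
include h

theorem IIcj {x : Ω} {t : G} (ht : II Cp x t) (g : G) : II Cp (g • x) (g * t * g⁻¹) :=
  let ⟨a, b, T, c, d⟩ := ht
  ⟨sq_cj a g, ne_cj b g, cj g T, h.eqv x g T c, conj_mem_cj.2 d⟩

theorem IIfix {x : Ω} {t : G} (ht : II Cp x t) : t • x = x :=
  let ⟨_, _, T, c, d⟩ := ht
  h.fix x T c t d

theorem same {x : Ω} {T T' : Subgroup G} (h1 : T ∈ Cp x) (h2 : T' ∈ Cp x) {a : G} (a1 : a ≠ 1)
    (ha : a ∈ T) (ha' : a ∈ T') : T = T' := by
  by_contra e
  exact a1 ((h.simp x T h1).cen ha fun b hb => (h.comm x T T' h1 h2 e b hb a ha').symm)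

theorem Mfix {x : Ω} {g : G} (hg : g ∈ sSup (Cp x)) : g • x = x :=
  (sSup_le (a := MulAction.stabilizer G x) fun T hT t ht => h.fix x T hT t ht) hg

theorem Mcj {x : Ω} {c : G} (hc : c ∈ sSup (Cp x)) (g : G) : g * c * g⁻¹ ∈ sSup (Cp (g • x)) :=
  (sSup_le (a := (sSup (Cp (g • x))).comap (MulAut.conj g).toMonoidHom) fun T hT _ ht =>
    le_sSup (h.eqv x g T hT) (conj_mem_cj.2 ht)) hc

theorem cmp {x : Ω} {T : Subgroup G} (hT : T ∈ Cp x) {c : G} (hc : c ∈ sSup (Cp x)) :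
    ∃ a ∈ T, a⁻¹ * c ∈ C T := by
  have : sSup (Cp x) ≤ T ⊔ C T := sSup_le fun T' hT' => by
    by_cases e : T' = T
    · rw [e]; exact le_sup_left
    · exact le_sup_of_le_right fun a ha => mem_centralizer_iff.2 fun b hb =>
        (h.comm x T' T hT' hT e a ha b hb).symm
  obtain ⟨a, ha, b, hb, rfl⟩ := (mem_sup_nrm' (nrm_of_le_C le_rfl)).1 (this hc)
  exact ⟨a, ha, by simpa using hb⟩

theorem cmp_uniq {x : Ω} {T : Subgroup G} (hT : T ∈ Cp x) {c a b : G} (ha : a ∈ T) (hb : b ∈ T)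
    (h1 : a⁻¹ * c ∈ C T) (h2 : b⁻¹ * c ∈ C T) : a = b := by
  have m : a⁻¹ * b ∈ C T := by
    have := mul_mem h1 (inv_mem h2)
    simpa [mul_assoc] using this
  exact inv_mul_eq_one.1 ((h.simp x T hT).cen (mul_mem (inv_mem ha) hb) fun d hd =>
    (mem_centralizer_iff.1 m d hd).symm)

theorem Mnrm {x : Ω} {T : Subgroup G} (hT : T ∈ Cp x) {c : G} (hc : c ∈ sSup (Cp x)) : c ∈ N T := by
  obtain ⟨a, ha, hb⟩ := h.cmp hT hc
  have := mul_mem (le_normalizer ha) (C_le_N T hb)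
  simpa using this

theorem exI (x : Ω) : ∃ t, II Cp x t := by
  obtain ⟨T, _, hT, -⟩ := h.two x
  obtain ⟨t, a, b, c⟩ := pt_exists_invol (h.simp x T hT).even
  exact ⟨t, b, c, T, hT, a⟩

variable (H : ∀ x t, II Cp x t → ∀ y, t • y = y → y = x)
include H

theorem cfix {x : Ω} {t g : G} (ht : II Cp x t) (c : g * t = t * g) : g • x = x :=
  H x t ht _ (smul_comm_fix (h.IIfix ht) c)

theorem eq_of_comm {x y : Ω} {t s : G} (ht : II Cp x t) (hs : II Cp y s) (c : t * s = s * t) : y = x :=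
  H x t ht y (h.cfix H hs c)

/-- part (i): products at different points have odd order -/
theorem odd_mul {x y : Ω} (xy : x ≠ y) {t s : G} (ht : II Cp x t) (hs : II Cp y s) :
    Odd (orderOf (t * s)) := by
  by_contra he
  obtain ⟨w, -, w1, w2, wt, ws, c, -, hc⟩ := pt_dihedral ht.1 hs.1 he
  have wy : w • y = y := h.cfix H hs ws
  have tw : ∃ z, II Cp z (t * w) := by
    rcases hc with e | e
    · exact ⟨_, e ▸ h.IIcj ht c⟩
    · exact ⟨_, e ▸ h.IIcj hs c⟩
  obtain ⟨z, hz⟩ := tw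
  obtain rfl : z = x := h.eq_of_comm H ht hz (by rw [mul_assoc, wt])
  obtain ⟨t2, t1, T, hT, tT⟩ := ht
  obtain ⟨b2, b1, T', hT', bT⟩ := hz
  have ht : II Cp z t := ⟨t2, t1, T, hT, tT⟩
  have ti : t⁻¹ = t := inv_eq_of_mul_eq_one_right t2
  have wI : ∀ U ∈ Cp z, w ∉ U := fun U hU m => xy (H z w ⟨w2, w1, U, hU, m⟩ y wy).symm
  have TT : T ≠ T' := fun e => wI T hT (by
    have := mul_mem (inv_mem tT) (e ▸ bT : t * w ∈ T)
    simpa using this)
  obtain ⟨d, dT, d2, d1, dt, td⟩ := (h.simp z T hT).second tT t1 t2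
  have dw : d * w = w * d := by
    have e := h.comm z T T' hT hT' TT d dT _ bT
    calc d * w = t⁻¹ * (t * d) * w := by group
      _ = t⁻¹ * (d * (t * w)) := by rw [td]; group
      _ = _ := by rw [e]; group
  let V : Subgroup G := zpowers t ⊔ zpowers d
  have VT : V ≤ T := sup_le (zpowers_le.2 tT) (zpowers_le.2 dT)
  have hV : ∀ v ∈ V, v = 1 ∨ v = t ∨ v = d ∨ v = t * d := fun v hv => by
    obtain ⟨a, ha, b, hb, rfl⟩ := (mem_sup_nrm' (nrm_of_le_C (by
      rw [C_zpowers, zpowers_le, mem_C1]; exact td.symm))).1 hv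
    rcases (mem_zpowers_invol t2).1 ha with rfl | rfl <;>
    rcases (mem_zpowers_invol d2).1 hb with rfl | rfl <;> simp
  have V2 : ∀ v ∈ V, v * v = 1 := fun v hv => by
    rcases hV v hv with rfl | rfl | rfl | rfl
    · simp
    · exact t2
    · exact d2
    · rw [mul_assoc, ← mul_assoc d, ← td, mul_assoc, d2, mul_one, t2]
  have Vab : Ab V := ab_iff.2 fun a ha b hb => by
    rw [← inv_eq_of_mul_eq_one_right (V2 _ (mul_mem ha hb)), mul_inv_rev,
      inv_eq_of_mul_eq_one_right (V2 a ha), inv_eq_of_mul_eq_one_right (V2 b hb)]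
  have tV : t ∈ V := mem_sup_left (mem_zpowers t)
  have dV : d ∈ V := mem_sup_right (mem_zpowers d)
  have key := zstar_mod (K := MulAction.stabilizer G z) (V := V) w2 t2 t1
    (fun e => wI T hT (e ▸ tT)) wt.symm (h.cfix H ht wt)
    (sup_le (zpowers_le.2 (mem_C1.2 wt.symm)) (zpowers_le.2 (mem_C1.2 dw))) Vab
    (fun hc => by
      obtain ⟨g, hg⟩ := hc.exists_generator
      have g2 : g * g = 1 := Subtype.ext (V2 g g.2)
      rcases (mem_zpowers_invol g2).1 (hg ⟨t, tV⟩) with e | e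
      · exact t1 (congrArg Subtype.val e)
      rcases (mem_zpowers_invol g2).1 (hg ⟨d, dV⟩) with e' | e'
      · exact d1 (congrArg Subtype.val e')
      · exact dt (congrArg Subtype.val (e'.trans e.symm)))
    V2 (fun m => wI T hT (VT m))
    (fun v hv v1 g hg => h.cfix H ⟨V2 v hv, v1, T, hT, VT hv⟩ (mem_C1.1 hg))
    (fun g _ e => by
      have m := h.IIcj ht g
      rcases e with e | e <;> rw [e] at m
      · exact h.eq_of_comm H ht m rfl
      · exact h.eq_of_comm H ht m (by rw [mul_assoc, wt]))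
    (fun g hg e => by
      have m := h.IIcj ht g
      have gw : g * w * g⁻¹ = w := mem_C1_iff_conj.1 hg
      have m2 : II Cp (g • z) (g * t * g⁻¹ * w) := by
        have := h.IIcj ⟨b2, b1, T', hT', bT⟩ g
        rwa [← conj_mul, gw] at this
      have gz : g • z = z := by
        rcases e with e | e
        · exact h.eq_of_comm H ht m e
        · have m3 := h.IIcj m t
          have : t * (g * t * g⁻¹) * t⁻¹ = g * t * g⁻¹ * w := by
            rw [e, mul_assoc _ t w, ← wt]; group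
          rw [this] at m3
          exact H z t ht _ (H _ _ m2 _ (h.IIfix m3))
      have hU := h.eqv z g T hT
      have hU' := h.eqv z g T' hT'
      rw [gz] at hU hU'
      have UU : cj g T ≠ cj g T' := fun e => TT (by
        rw [← cj_one T, ← cj_one T', ← inv_mul_cancel g, ← cj_cj, ← cj_cj, e])
      have aU : g * t * g⁻¹ ∈ cj g T := conj_mem_cj.2 tT
      have c1 : (g * t * g⁻¹)⁻¹ * w ∈ C (cj g T) := mem_centralizer_iff.2 fun b hb => by
        have : (g * t * g⁻¹)⁻¹ * w = g * (t * w) * g⁻¹ := by rw [← conj_mul, gw, conj_inv, ti]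
        rw [this]
        exact h.comm z _ _ hU hU' UU b hb _ (conj_mem_cj.2 bT)
      by_cases q : cj g T = T
      · left
        refine h.cmp_uniq hU aU (q.symm ▸ tT) c1 ?_
        rw [q, ti]
        exact mem_centralizer_iff.2 fun b hb => h.comm z _ _ hT hT' TT b hb _ bT
      by_cases q' : cj g T = T'
      · right
        refine h.cmp_uniq hU aU (q'.symm ▸ bT) c1 ?_
        have : (t * w)⁻¹ * w = t := by
          rw [inv_eq_of_mul_eq_one_right b2, mul_assoc, w2, mul_one]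
        rw [q', this]
        exact mem_centralizer_iff.2 fun b hb => (h.comm z _ _ hT hT' TT t tT b hb).symm
      · exfalso
        refine ne_cj t1 g (h.cmp_uniq hU aU (one_mem _) c1 ?_)
        have : (1 : G)⁻¹ * w = t * (t * w) := by rw [← mul_assoc, t2]; simp
        rw [this]
        exact mul_mem (mem_centralizer_iff.2 fun b hb => h.comm z _ _ hU hT q b hb _ tT)
          (mem_centralizer_iff.2 fun b hb => h.comm z _ _ hU hT' q' b hb _ bT))
  exact xy (H y s hs z (key (mem_C1.2 ws.symm)))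

end CS

end CfsgO5
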