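import Cfsg.Agent.H5.OA2
import Cfsg.Agent.H4.OA2

set_option autoImplicit false
set_option linter.unusedSectionVars false
set_option maxHeartbeats 400000

namespace CfsgO5

open Subgroup CfsgH5 CfsgH6 CfsgFT CfsgSZ CfsgOA

universe u
variable {G : Type u} [Group G] [Finite G] {Ω : Type*} [MulAction G Ω] {K L : Ω → Subgroup G}
  {x y z u : Ω} {t s i j w g : G}

/-- involutions of the family -/
def IK (K : Ω → Subgroup G) (x : Ω) (t : G) : Prop := t ∈ K x ∧ t * t = 1 ∧ t ≠ 1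

theorem ik_cj (hK : PF K) (ht : IK K x t) (g : G) : IK K (g • x) (g * t * g⁻¹) :=
  ⟨hK.cj g x t ht.1, sq_cj ht.2.1 g, ne_cj ht.2.2 g⟩

theorem ik_only (sr : SR K) (ht : IK K x t) (e : t • y = y) : y = x := by
  by_contra n
  exact ht.2.2 (sr x y (Ne.symm n) t ht.1 e)

theorem ik_cfix (hK : PF K) (sr : SR K) (ht : IK K x t) (c : g * t = t * g) : g • x = x :=
  ik_only sr ht (smul_comm_fix (hK.fix _ _ ht.1) c)

theorem ik_odd (hK : PF K) (sr : SR K) (xy : x ≠ y) (ht : IK K x t) (hs : IK K y s) :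
    Odd (orderOf (t * s)) := by
  by_contra he
  obtain ⟨w, -, w1, w2, wt, ws, c, -, hc⟩ := pt_dihedral ht.2.1 hs.2.1 he
  have tw : ∃ z, IK K z (t * w) := by
    rcases hc with e | e
    · exact ⟨_, e ▸ ik_cj hK ht c⟩
    · exact ⟨_, e ▸ ik_cj hK hs c⟩
  obtain ⟨z, hz⟩ := tw
  obtain rfl : z = x := ik_only sr ht (ik_cfix hK sr hz (by rw [mul_assoc, wt]))
  have := mul_mem (inv_mem ht.1) hz.1
  rw [inv_mul_cancel_left] at this
  exact w1 (sr z y xy w this (ik_cfix hK sr hs ws))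

theorem ik_swap (hK : PF K) (sr : SR K) (xy : x ≠ y) (hi : IK K x i) (hj : IK K y j) :
    ∃ c ∈ zpowers (i * j), j = c * i * c⁻¹ ∧ c • x = y ∧ ∃ z, IK K z (c * i) := by
  have o := ik_odd hK sr xy hi hj
  have iv := pt_inv_mul hi.2.1 hj.2.1
  obtain ⟨c, hc, e⟩ := pt_conj_of_inv iv o
  rw [← mul_assoc, hi.2.1, one_mul] at e
  obtain ⟨d, -, e'⟩ := pt_conj_of_inv' (pt_inv_zp iv hc) (pt_odd_zp o hc)
  refine ⟨c, hc, e, ?_, _, e' ▸ ik_cj hK hi d⟩
  exact ik_only sr hj (hK.fix _ _ (e ▸ (ik_cj hK hi c).1))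

variable (G) in
/-- setwise stabiliser of a pair -/
def pairS (x y : Ω) : Subgroup G where
  carrier := {g | (g • x = x ∧ g • y = y) ∨ (g • x = y ∧ g • y = x)}
  mul_mem' := by
    rintro a b (⟨h1, h2⟩ | ⟨h1, h2⟩) (⟨h3, h4⟩ | ⟨h3, h4⟩)
    · left; exact ⟨by rw [mul_smul, h3, h1], by rw [mul_smul, h4, h2]⟩
    · right; exact ⟨by rw [mul_smul, h3, h2], by rw [mul_smul, h4, h1]⟩
    · right; exact ⟨by rw [mul_smul, h3, h1], by rw [mul_smul, h4, h2]⟩
    · left; exact ⟨by rw [mul_smul, h3, h2], by rw [mul_smul, h4, h1]⟩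
  one_mem' := by simp
  inv_mem' := by
    rintro a (⟨h1, h2⟩ | ⟨h1, h2⟩)
    · left; exact ⟨inv_smul_eq_iff.2 h1.symm, inv_smul_eq_iff.2 h2.symm⟩
    · right; exact ⟨inv_smul_eq_iff.2 h2.symm, inv_smul_eq_iff.2 h1.symm⟩

theorem ik_same (hK : PF K) (sr : SR K) (xy : x ≠ y) (ht : IK K z t) (hs : IK K z s)
    (tx : t • x = y) (sy : s • y = x) : s * t = 1 :=
  sr z x (fun e => xy (by rw [← tx, ← e, hK.fix _ _ ht.1])) _ (mul_mem hs.1 ht.1)
    (by rw [mul_smul, tx, sy])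

theorem ik_O (hK : PF K) (sr : SR K) (xy : x ≠ y) (ht : IK K z t) (hs : IK K u s)
    (tx : t • x = y) (ty : t • y = x) (sx : s • x = y) (sy : s • y = x) :
    s * t ∈ Opc 2 (pairS G x y) := by
  by_cases zu : z = u
  · subst zu
    rw [ik_same hK sr xy ht hs tx sy]; exact one_mem _
  have tH : t ∈ pairS G x y := Or.inr ⟨tx, ty⟩
  have sH : s ∈ pairS G x y := Or.inr ⟨sx, sy⟩
  have hz := zstar tH ht.2.2 ht.2.1 (fun g hg c => by
    have m := ik_cj hK ht g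
    have gz : g • z = z := ik_only sr ht (ik_cfix hK sr m c.eq)
    rw [gz] at m
    have : (g * t * g⁻¹) • y = x := by
      rcases hg with ⟨a, b⟩ | ⟨a, b⟩
      · rw [mul_smul, mul_smul, inv_smul_eq_iff.2 b.symm, ty, a]
      · rw [mul_smul, mul_smul, inv_smul_eq_iff.2 a.symm, tx, b]
    rw [eq_inv_of_mul_eq_one_left (ik_same hK sr xy ht m tx this), pt_inv ht.2.1])
  obtain ⟨c, hc, e⟩ := pt_conj_of_inv (pt_inv_mul ht.2.1 hs.2.1) (ik_odd hK sr zu ht hs)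
  rw [← mul_assoc, ht.2.1, one_mul] at e
  have cH : c ∈ pairS G x y := zpowers_le.2 (mul_mem tH sH) hc
  rw [← hz] at cH
  obtain ⟨o, ho, d, hd, rfl⟩ := (mem_sup_nrm' (Y := pairS G x y ⊓ C1 t)
    fun a ha b hb => nrm_Opc 2 _ a ha.1 b hb).1 cH
  have dt := mem_C1_iff_conj.1 hd.2
  have : s * t = o * (t * o⁻¹ * t⁻¹) := by
    calc s * t = o * (d * t * d⁻¹) * o⁻¹ * t := by rw [e]; group
      _ = _ := by rw [dt, pt_inv ht.2.1]; group
  rw [this]
  exact mul_mem ho (nrm_Opc 2 _ t tH _ (inv_mem ho))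

theorem O_odd (ho : g ∈ Opc 2 (pairS G x y)) : Odd (orderOf g) :=
  pt_odd_mem (Nat.not_even_iff_odd.1 fun ev =>
    not_dvd_card_Opc Nat.prime_two _ (even_iff_two_dvd.1 ev)) ho

theorem O_fix (ho : g ∈ Opc 2 (pairS G x y)) : g • x = x := by
  refine pt_mem_of_sq (X := MulAction.stabilizer G x) (O_odd ho) ?_
  change (g * g) • x = x
  rcases Opc_le 2 _ ho with ⟨a, b⟩ | ⟨a, b⟩
  · rw [mul_smul, a, a]
  · rw [mul_smul, a, b]

theorem ik_ex (sK : ∀ x, NS (K x)) (x : Ω) : ∃ t, IK K x t := pt_exists_invol (sK x).even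

theorem ik_trans (hK : PF K) (sr : SR K) (sK : ∀ x, NS (K x)) (xy : x ≠ y) (hi : IK K x i)
    (hs : IK K x s) : ∃ o ∈ Opc 2 (pairS G x y), s = o * i * o⁻¹ := by
  obtain ⟨j, hj⟩ := ik_ex sK y
  obtain ⟨c, -, e, cy, z, hz⟩ := ik_swap hK sr xy.symm hj hi
  obtain ⟨d, -, e', dy, u, hu⟩ := ik_swap hK sr xy.symm hj hs
  have jy := hK.fix _ _ hj.1
  have a1 : (c * j) • y = x := by rw [mul_smul, jy, cy]
  have a2 : (d * j) • y = x := by rw [mul_smul, jy, dy]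
  have b1 : (c * j) • x = y := by rw [← a1, ← mul_smul, hz.2.1, one_smul]
  have b2 : (d * j) • x = y := by rw [← a2, ← mul_smul, hu.2.1, one_smul]
  refine ⟨_, ik_O hK sr xy hz hu b1 a1 b2 a2, ?_⟩
  have : d * j * (c * j) = d * j * (c * j)⁻¹ := by rw [pt_inv hz.2.1]
  rw [this, e, e']; group

theorem ik_all (hK : PF K) (hL : PF L) (comm : ∀ x, ∀ k ∈ K x, ∀ n ∈ L x, k * n = n * k)
    (sr : SR K) (sK : ∀ x, NS (K x)) (hi : IK K x i) (hw : w ∈ L x) (e : (i * w) • y = y) :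
    y = x := by
  by_contra n
  obtain ⟨s, sT, s2, s1, si, c⟩ := (sK x).second hi.1 hi.2.2 hi.2.1
  obtain ⟨o, ho, es⟩ := ik_trans hK sr sK (Ne.symm n) hi ⟨sT, s2, s1⟩
  have aH : i * w ∈ pairS G x y :=
    Or.inl ⟨by rw [mul_smul, hL.fix _ _ hw, hK.fix _ _ hi.1], e⟩
  have m := mul_mem ho (nrm_Opc 2 _ _ aH _ (inv_mem ho))
  have q : o * w * o⁻¹ * w⁻¹ ∈ L x := mul_mem (hL.cj' (O_fix ho) hw) (inv_mem hw)
  obtain ⟨b, hb⟩ : ∃ b, b = o * w * o⁻¹ * w⁻¹ := ⟨_, rfl⟩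
  rw [← hb] at q
  have em : o * (i * w * o⁻¹ * (i * w)⁻¹) = s * i * b := by
    calc _ = o * i * o⁻¹ * ((o * w * o⁻¹ * w⁻¹) * i⁻¹) := by group
      _ = _ := by rw [← es, ← hb, pt_inv hi.2.1, ← comm x i hi.1 b q, mul_assoc]
  rw [em] at m
  have p : s * i ∈ K x := mul_mem sT hi.1
  have p2 : s * i * (s * i) = 1 := by
    rw [mul_assoc, ← mul_assoc i, c, mul_assoc, hi.2.1, mul_one, s2]
  have mL : s * i * b ∈ L x := pt_mem_of_sq (O_odd m) (by
    have : s * i * b * (s * i * b) = b * b := by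
      calc _ = s * i * (b * (s * i)) * b := by group
        _ = s * i * (s * i) * (b * b) := by rw [← comm x _ p b q]; group
        _ = _ := by rw [p2, one_mul]
    rw [this]
    exact mul_mem q q)
  have pL : s * i ∈ L x := by simpa using mul_mem mL (inv_mem q)
  have := (sK x).cen p fun k hk => (comm x k hk _ pL).symm
  exact si (by rw [eq_inv_of_mul_eq_one_left this, pt_inv hi.2.1])

theorem fixL (hK : PF K) (hL : PF L) (comm : ∀ x, ∀ k ∈ K x, ∀ n ∈ L x, k * n = n * k)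
    (sr : SR K) (sK : ∀ x, NS (K x)) (hw : w ∈ L x) (w2 : w * w = 1) (e : w • u = u) :
    w ∈ L u := by
  by_cases xu : x = u
  · exact xu ▸ hw
  have wN : w ∈ N (K u) := mem_normalizer_iff.2 fun k => ⟨fun hk => hK.cj' e hk, fun hk => by
    have := hK.cj' (inv_smul_eq_iff.2 e.symm) hk
    simpa [mul_assoc] using this⟩
  obtain ⟨d, dK, d2, d1, c⟩ := cent_inv (sK u).even w2 wN
  obtain ⟨i, hi⟩ := ik_ex sK x
  obtain ⟨a, ha, -, ax, -⟩ := ik_swap hK sr xu hi ⟨dK, d2, d1⟩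
  have : a ∈ C1 w := zpowers_le.2 (mul_mem (mem_C1.2 (comm x i hi.1 w hw)) (mem_C1.2 c.symm)) ha
  have b := hL.cj' ax hw
  rwa [mem_C1_iff_conj.1 this] at b

/-- a semiregular simple family commutes with no family of even order -/
theorem P1sr [FaithfulSMul G Ω] (hK : PF K) (hL : PF L)
    (comm : ∀ x, ∀ k ∈ K x, ∀ n ∈ L x, k * n = n * k) (sK : ∀ x, NS (K x)) (x : Ω)
    (ev : ¬ Odd (Nat.card (L x))) (sr : SR K) : False := by
  obtain ⟨w, hw, w2, w1⟩ := pt_exists_invol ev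
  refine w1 (FaithfulSMul.eq_of_smul_eq_smul (α := Ω) fun u => ?_)
  rw [one_smul]
  obtain ⟨i, hi⟩ := ik_ex sK u
  by_cases o : Odd (orderOf (i * w))
  · obtain ⟨c, -, e⟩ := pt_conj_of_inv (pt_inv_mul hi.2.1 w2) o
    rw [← mul_assoc, hi.2.1, one_mul] at e
    have m := ik_cj hK hi c
    rw [← e] at m
    rw [← ik_only sr m (hL.fix _ _ hw)] at m
    exact (w1 ((sK x).cen m.1 fun k hk => (comm x k hk _ hw).symm)).elim
  obtain ⟨v, -, v1, v2, vi, vw, c, -, hc⟩ := pt_dihedral hi.2.1 w2 o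
  have vu : v • u = u := ik_cfix hK sr hi vi
  rcases hc with e | e
  · have m := ik_cj hK hi c
    rw [← e] at m
    rw [ik_only sr hi (ik_cfix hK sr m (by rw [mul_assoc, vi]))] at m
    have := mul_mem (inv_mem hi.1) m.1
    rw [inv_mul_cancel_left] at this
    exact ik_cfix hK sr ⟨this, v2, v1⟩ vw.symm
  · have m := hL.cj c x w hw
    have m2 := sq_cj w2 c
    rw [← e] at m m2
    have := fixL hK hL comm sr sK m m2 (u := u) (by rw [mul_smul, vu, hK.fix _ _ hi.1])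
    refine ik_all hK hL comm sr sK hi this ?_
    rw [← mul_assoc, hi.2.1, one_mul]
    exact smul_comm_fix vu vw.symm

/-- two commuting simple families do not exist -/
theorem P1 [FaithfulSMul G Ω] (hK : PF K) (hL : PF L)
    (comm : ∀ x, ∀ k ∈ K x, ∀ n ∈ L x, k * n = n * k) (two : Two G Ω)
    (sK : ∀ x, IsSimpleGroup (K x)) (sL : ∀ x, IsSimpleGroup (L x))
    (nK : ∀ x, ¬ IsMulCommutative (K x)) (nL : ∀ x, ¬ IsMulCommutative (L x)) (x : Ω) : False := by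
  rcases SR_or hK hL comm two sK sL with sr | sr
  · exact P1sr hK hL comm (fun x => ⟨sK x, nK x⟩) x (NS.even ⟨sL x, nL x⟩) sr
  · exact P1sr hL hK (fun x k hk n hn => (comm x n hn k hk).symm) (fun x => ⟨sL x, nL x⟩) x
      (NS.even ⟨sK x, nK x⟩) sr

end CfsgO5
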