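import Cfsg.Agent.H5.OB1
import Cfsg.Agent.H4.OA3

set_option autoImplicit false

namespace CfsgO5

open Subgroup CfsgOA

universe u
variable {G : Type u} [Group G] [Finite G] {Ω : Type*} [MulAction G Ω]

theorem ns_of_nc {T : Subgroup G} (h : IsSimpleGroup T) (n : NC T) : NS T :=
  ⟨h, fun c => by
    obtain ⟨a, ha, b, hb, e⟩ := n
    exact e (congrArg Subtype.val (c.is_comm.comm (⟨a, ha⟩ : T) ⟨b, hb⟩))⟩

/-- the form used by `CfsgOA.reduction` -/
theorem P1red [FaithfulSMul G Ω] (a : Ω) : ∀ K N : Ω → Subgroup G, PF K → PF N →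
    (∀ x, ∀ k ∈ K x, ∀ n ∈ N x, k * n = n * k) →
    (∀ x, IsSimpleGroup (K x)) → (∀ x, IsSimpleGroup (N x)) → (∀ x, NC (K x)) →
    (∀ x, NC (N x)) → SR K → False := fun _ _ hK hN comm sK sN nK nN sr =>
  P1sr hK hN comm (fun x => ns_of_nc (sK x) (nK x)) a (ns_of_nc (sN a) (nN a)).even sr

end CfsgO5
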