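import Cfsg.Agent.H5.OB2

set_option autoImplicit false
set_option linter.unusedSectionVars false
set_option maxHeartbeats 400000

namespace CfsgO5

open Subgroup CfsgH5 CfsgH6 CfsgFT CfsgSZ

universe u
variable {G : Type u} [Group G] [Finite G] {Ω : Type*} [MulAction G Ω] {Cp : Ω → Set (Subgroup G)}

theorem cen_aux (S : Set (Subgroup G)) (hs : ∀ T ∈ S, NS T)
    (hc : ∀ T ∈ S, ∀ U ∈ S, T ≠ U → ∀ t ∈ T, ∀ u ∈ U, t * u = u * t) :
    ∀ g ∈ sSup S, (∀ T ∈ S, ∀ t ∈ T, g * t = t * g) → g = 1 := by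
  induction S, S.toFinite using Set.Finite.induction_on with
  | empty => intro g hg _; simpa using hg
  | @insert T S hT _ ih =>
    intro g hg h
    have le : sSup S ≤ C T := sSup_le fun U hU u hu => mem_centralizer_iff.2 fun t ht =>
      hc T (Set.mem_insert _ _) U (Set.mem_insert_of_mem _ hU) (fun e => hT (e ▸ hU)) t ht u hu
    rw [sSup_insert] at hg
    obtain ⟨a, ha, b, hb, rfl⟩ := (mem_sup_nrm' (nrm_of_le_C le)).1 hg
    obtain rfl : a = 1 := (hs T (Set.mem_insert _ _)).cen ha fun t ht => by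
      have e := h T (Set.mem_insert _ _) t ht
      rw [mul_assoc, ← mem_centralizer_iff.1 (le hb) t ht, ← mul_assoc, ← mul_assoc] at e
      exact mul_right_cancel e
    rw [one_mul] at h ⊢
    exact ih (fun U hU => hs U (Set.mem_insert_of_mem _ hU))
      (fun U hU V hV => hc U (Set.mem_insert_of_mem _ hU) V (Set.mem_insert_of_mem _ hV)) b hb
      fun U hU => h U (Set.mem_insert_of_mem _ hU)

theorem CS.of_CF [Nontrivial Ω] (two : CfsgOA.Two G Ω) (h : CfsgOA.CF Cp) : CS Cp where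
  tr2 := two
  nt := exists_pair_ne Ω
  eqv := fun x g T hT => h.cj g x T hT
  fix := h.fix
  simp := fun x T hT => ns_of_nc (h.simple x T hT) (h.nc x T hT)
  comm := fun x T U hT hU => h.comm x T hT U hU
  two := fun x => let ⟨T, a, U, b, c⟩ := h.two x; ⟨T, U, a, b, c⟩
  cen := fun x => cen_aux _ (fun T hT => ns_of_nc (h.simple x T hT) (h.nc x T hT)) (h.comm x)

namespace CS

variable (h : CS Cp) (H : ∀ x t, II Cp x t → ∀ y, t • y = y → y = x)
include h H

theorem clA {x y : Ω} {T : Subgroup G} (hT : T ∈ Cp x) {a b t : G} (ha : a ∈ T) (a2 : a * a = 1)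
    (a1 : a ≠ 1) (hb : b ∈ C T) (ht : II Cp y t) (c : t * (a * b) = a * b * t) : y = x := by
  by_contra n
  obtain ⟨d, dT, d2, d1, da, ad⟩ := (h.simp x T hT).second ha a1 a2
  have key : ∀ e ∈ T, e * e = 1 → e ≠ 1 → e * a = a * e → ∃ k ∈ C1 (a * b), e = k * t * k⁻¹ := by
    intro e eT e2 e1 ea
    obtain ⟨k, hk, q⟩ := pt_conj_of_inv (pt_inv_mul ht.1 e2) (h.odd_mul H n ht ⟨e2, e1, T, hT, eT⟩)
    rw [← mul_assoc, ht.1, one_mul] at q
    refine ⟨k, zpowers_le.2 (mul_mem (mem_C1.2 c) (mem_C1.2 ?_)) hk, q⟩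
    rw [← mul_assoc, ea, mul_assoc, mem_centralizer_iff.1 hb e eT, mul_assoc]
  obtain ⟨k, hk, q⟩ := key a ha a2 a1 rfl
  obtain ⟨l, hl, r⟩ := key d dT d2 d1 ad.symm
  obtain ⟨g, hg⟩ : ∃ g, g = l * k⁻¹ := ⟨_, rfl⟩
  have gC : g ∈ C1 (a * b) := hg ▸ mul_mem hl (inv_mem hk)
  have gd : g * a * g⁻¹ = d := by rw [hg, q, r]; group
  have m := h.IIcj (⟨a2, a1, T, hT, ha⟩ : II Cp x a) g
  rw [gd] at m
  have gx : g • x = x := (H _ _ m x (h.fix x T hT d dT)).symm
  have hU := h.eqv x g T hT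
  rw [gx] at hU
  have e : cj g T = T := h.same hU hT d1 (gd ▸ conj_mem_cj.2 ha) dT
  refine da (h.cmp_uniq hT dT ha (c := a * b) ?_ (by simpa using hb))
  have : d⁻¹ * (a * b) = g * b * g⁻¹ := by
    rw [← mem_C1_iff_conj.1 gC, ← gd]; group
  rw [this]
  refine mem_centralizer_iff.2 fun s hs => ?_
  rw [← e] at hs
  obtain ⟨s, hs, rfl⟩ := hs
  have := mem_centralizer_iff.1 hb s hs
  simp only [MulEquiv.coe_toMonoidHom, MulAut.conj_apply]
  rw [conj_mul, conj_mul, this]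

theorem clB {x y : Ω} {T U : Subgroup G} (hT : T ∈ Cp x) (hU : U ∈ Cp x) (TU : T ≠ U) {a b : G}
    (ha : a ∈ T) (a2 : a * a = 1) (a1 : a ≠ 1) (hb : b ∈ U) (b2 : b * b = 1) (b1 : b ≠ 1) :
    (a * b) • y = y := by
  by_contra n
  have ab := h.comm x T U hT hU TU a ha b hb
  have cen : ∀ {V W : Subgroup G}, V ∈ Cp x → W ∈ Cp x → V ≠ W → ∀ w ∈ W, w ∈ C V :=
    fun hV hW e w hw => mem_centralizer_iff.2 fun v hv => h.comm x _ _ hV hW e v hv w hw
  obtain ⟨r, hr⟩ : ∃ r, r = a * b := ⟨_, rfl⟩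
  have r2 : r * r = 1 := by rw [hr, mul_assoc, ← mul_assoc b, ← ab, mul_assoc, b2, mul_one, a2]
  have rx : r • x = x := by rw [hr, mul_smul, h.fix x U hU b hb, h.fix x T hT a ha]
  rw [← hr] at n
  have yx : y ≠ x := fun e => n (e ▸ rx)
  obtain ⟨t, ht⟩ := h.exI y
  by_cases o : Odd (orderOf (t * r))
  · obtain ⟨k, -, q⟩ := pt_conj_of_inv (pt_inv_mul ht.1 r2) o
    rw [← mul_assoc, ht.1, one_mul] at q
    have m := h.IIcj ht k
    rw [← q, ← H _ _ m x (q ▸ rx)] at m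
    obtain ⟨-, -, V, hV, rV⟩ := m
    by_cases e : T = V
    · subst e
      have := mul_mem (inv_mem ha) rV
      rw [hr, inv_mul_cancel_left] at this
      exact TU (h.same hT hU b1 this hb)
    · have := mul_mem (cen hT hV e r rV) (inv_mem (cen hT hU TU b hb))
      rw [hr, mul_inv_cancel_right] at this
      exact a1 ((h.simp x T hT).cen ha fun s hs => (mem_centralizer_iff.1 this s hs).symm)
  obtain ⟨z, hz, z1, z2, zt, zr, c, hc, e | e⟩ := pt_dihedral ht.1 r2 o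
  · have o2 := h.odd_mul H (Ne.symm n) ht (h.IIcj ht r)
    have i := pt_inv_zp (pt_inv_mul ht.1 r2) hc
    have e2 : z = c⁻¹ * c⁻¹ := by
      calc z = t⁻¹ * (t * z) := by group
        _ = (t * c * t⁻¹) * c⁻¹ := by rw [e, pt_inv ht.1]; group
        _ = _ := by rw [i]
    have e3 : t * (r * t * r⁻¹) = (t * r) ^ (2 : ℤ) := by rw [pt_inv r2, zpow_two]; group
    rw [e3] at o2
    refine z1 (pt_eq_one (pt_odd_zp o2 ?_) z2)
    obtain ⟨m, rfl⟩ := hc
    exact ⟨-m, by rw [e2]; simp only; group⟩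
  · have cz : c * z = z * c := by
      obtain ⟨m, rfl⟩ := hc
      obtain ⟨l, rfl⟩ := hz
      exact (Commute.zpow_zpow_self _ _ _).eq
    have m := h.IIcj ht c⁻¹
    obtain ⟨s, hs⟩ : ∃ s, s = c⁻¹ * t * c⁻¹⁻¹ := ⟨_, rfl⟩
    rw [← hs] at m
    have sz : s * z = r := by
      calc s * z = c⁻¹ * t * (c * z) := by rw [hs]; group
        _ = c⁻¹ * (t * z) * c := by rw [cz]; group
        _ = r := by rw [e]; group
    have zs : z = s * r := by rw [← sz, ← mul_assoc, m.1, one_mul]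
    have sr : s * r = r * s := by
      rw [← zs, ← pt_inv z2, zs, mul_inv_rev, pt_inv r2, pt_inv m.1]
    rw [h.clA H hT ha a2 a1 (cen hT hU TU b hb) m (hr ▸ sr)] at m
    obtain ⟨-, -, V, hV, sV⟩ := m
    by_cases q : T = V
    · subst q
      have f : z = b * (s * a) := by
        rw [zs, hr, ← mul_assoc, h.comm x T U hT hU TU _ (mul_mem sV ha) b hb]
      exact yx (h.clA H hU hb b2 b1 (cen hU hT TU.symm _ (mul_mem sV ha)) ht (f ▸ zt.symm))
    · have f : z = a * (s * b) := by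
        rw [zs, hr, ← mul_assoc, ← h.comm x T V hT hV q a ha s sV, mul_assoc]
      exact yx (h.clA H hT ha a2 a1 (mul_mem (cen hT hV q s sV) (cen hT hU TU b hb)) ht
        (f ▸ zt.symm))

theorem kill : False := by
  obtain ⟨x, y, xy⟩ := h.nt
  obtain ⟨T, U, hT, hU, TU⟩ := h.two x
  obtain ⟨a, ha, a2, a1⟩ := pt_exists_invol (h.simp x T hT).even
  obtain ⟨b, hb, b2, b1⟩ := pt_exists_invol (h.simp x U hU).even
  obtain ⟨d, hd, d2, d1, db, bd⟩ := (h.simp x U hU).second hb b1 b2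
  have e1 := h.clB H (y := y) hT hU TU ha a2 a1 hb b2 b1
  have e2 := h.clB H (y := y) hT hU TU ha a2 a1 hd d2 d1
  refine xy (H x (b⁻¹ * d) ⟨?_, fun e => db (inv_mul_eq_one.1 e).symm, U, hU,
    mul_mem (inv_mem hb) hd⟩ y ?_).symm
  · rw [pt_inv b2, mul_assoc, ← mul_assoc d, ← bd, mul_assoc, d2, mul_one, b2]
  · have : b⁻¹ * d = (a * b)⁻¹ * (a * d) := by group
    rw [this, mul_smul, e2, inv_smul_eq_iff, e1]

end CS

/-- some involution of a component fixes a second point -/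
theorem sA [Nontrivial Ω] (two : CfsgOA.Two G Ω) (hC : CfsgOA.CF Cp)
    (hs : ∀ x, ∀ T ∈ Cp x, ∀ t ∈ T, t * t = 1 → t ≠ 1 → ∀ y, t • y = y → y = x) : False :=
  (CS.of_CF two hC).kill fun x t ⟨a, b, T, c, d⟩ => hs x T c t d a b

end CfsgO5
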